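import Mathlib
import Cfsg.Agent.Lib.KS2.Jordan2

set_option autoImplicit false

namespace Cfsg.Agent.Lib.OrderP

open Cfsg.Agent.Lib.KS2.Jordan Matrix

variable {F : Type*} [Field F]

/-- Vanishing of powers of `g - 1` is read off the Jordan type. -/
lemma pow_eq_zero_iff_of_hasType {n : ℕ} {g : GL (Fin n) F} {s : Multiset ℕ} (h : HasType g s) (k : ℕ) :
    ((g : Matrix (Fin n) (Fin n) F) - 1) ^ k = 0 ↔ ∀ x ∈ s, x ≤ k := by
  obtain ⟨m, e, b, hb, hpos, rfl⟩ := h
  have hT : ∀ A : Matrix (Fin n) (Fin n) F, (Matrix.toLin' A) ^ k = Matrix.toLin' (A ^ k) := by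
    intro A
    exact (map_pow (Matrix.toLinAlgEquiv' (R := F) (n := Fin n)) A k).symm
  have h0 : ((g : Matrix (Fin n) (Fin n) F) - 1) ^ k = 0 ↔
      (Matrix.toLin' ((g : Matrix (Fin n) (Fin n) F) - 1)) ^ k = 0 := by
    rw [hT]
    constructor
    · intro h; rw [h]; simp
    · intro h
      exact (Matrix.toLin' (R := F) (m := Fin n) (n := Fin n)).injective (by rw [h]; simp)
  rw [h0]
  constructor
  · intro h x hx
    obtain ⟨i, -, rfl⟩ := Multiset.mem_map.mp hx
    by_contra hlt
    push Not at hlt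
    have h1 := pow_apply hb k i ⟨0, hpos i⟩
    rw [h] at h1
    simp only [LinearMap.zero_apply] at h1
    rw [dif_pos (by simpa using hlt)] at h1
    exact b.ne_zero _ h1.symm
  · intro h
    refine b.ext fun x => ?_
    obtain ⟨i, j⟩ := x
    rw [pow_apply hb, dif_neg]
    · simp
    · have := h (e i) (Multiset.mem_map.mpr ⟨i, Finset.mem_univ_val i, rfl⟩)
      omega

/-- `g` has order `p` iff all its Jordan blocks have size at most `p` and not all have size `≤ 1`. -/
lemma orderOf_eq_iff_of_hasType (p : ℕ) [Fact p.Prime] [CharP F p] {n : ℕ} {g : GL (Fin n) F}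
    {s : Multiset ℕ} (h : HasType g s) :
    orderOf g = p ↔ (∀ x ∈ s, x ≤ p) ∧ ¬ ∀ x ∈ s, x ≤ 1 := by
  have hp : p.Prime := Fact.out
  have h1 : g = 1 ↔ ∀ x ∈ s, x ≤ 1 := by
    rw [← pow_eq_zero_iff_of_hasType h 1, pow_one, sub_eq_zero]
    constructor
    · rintro rfl; rfl
    · intro h; exact Units.ext h
  have h2 : g ^ p = 1 ↔ ∀ x ∈ s, x ≤ p := by
    rw [← pow_eq_zero_iff_of_hasType h p]
    cases n with
    | zero =>
      constructor
      · intro _; exact Subsingleton.elim _ _
      · intro _; exact Units.ext (Subsingleton.elim _ _)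
    | succ n =>
      haveI : CharP (Matrix (Fin (n + 1)) (Fin (n + 1)) F) p := Matrix.charP p
      have h3 := sub_pow_char_of_commute (p := p) (Commute.one_right (g : Matrix (Fin (n + 1)) (Fin (n + 1)) F))
      rw [h3, one_pow, sub_eq_zero]
      constructor
      · intro hg
        have := congrArg (Units.val) hg
        simpa [Units.val_pow_eq_pow_val] using this
      · intro hg
        apply Units.ext
        rw [Units.val_pow_eq_pow_val, hg]
        rfl
  rw [← h1, ← h2]
  haveI : Fact p.Prime := ⟨hp⟩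
  constructor
  · intro ho
    refine ⟨by rw [← ho]; exact pow_orderOf_eq_one g, ?_⟩
    rintro rfl
    rw [orderOf_one] at ho
    exact hp.one_lt.ne ho
  · rintro ⟨h3, h4⟩
    exact orderOf_eq_prime h3 h4

/-- The number of classes of elements of order `p` in `GL_n` over a field of characteristic `p`. -/
theorem card_orderP_classes (p : ℕ) [Fact p.Prime] [CharP F p] (n : ℕ) [Fintype F] :
    Nat.card {C : ConjClasses (GL (Fin n) F) // ∃ g : GL (Fin n) F, ConjClasses.mk g = C ∧ orderOf g = p} =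
      (Finset.univ.filter (fun μ : Nat.Partition n => ∀ a ∈ μ.parts, a ≤ p)).card - 1 := by
  classical
  have hp : p.Prime := Fact.out
  have hex : ∀ l : Nat.Partition n, ∃ g : GL (Fin n) F, IsNilpotent ((g : Matrix (Fin n) (Fin n) F) - 1) ∧ HasType g l.parts :=
    fun l => exists_of_multiset l.parts (fun x hx => l.parts_pos hx) l.parts_sum
  choose G hG1 hG2 using hex
  -- the all-ones partition
  let l₀ : Nat.Partition n := ⟨Multiset.replicate n 1, by
    intro x hx
    rw [Multiset.eq_of_mem_replicate hx]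
    norm_num, by simp⟩
  have hl₀ : ∀ l : Nat.Partition n, (∀ x ∈ l.parts, x ≤ 1) → l = l₀ := by
    intro l hl
    apply Nat.Partition.ext
    have hall : ∀ x ∈ l.parts, x = 1 := fun x hx => le_antisymm (hl x hx) (l.parts_pos hx)
    have h1 : l.parts = Multiset.replicate (Multiset.card l.parts) 1 :=
      Multiset.eq_replicate_card.2 hall
    have h2 : l.parts.sum = Multiset.card l.parts := by
      rw [h1]; simp
    have h3 : Multiset.card l.parts = n := by rw [← h2, l.parts_sum]
    rw [h1, h3]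
  have hl₀' : ∀ x ∈ l₀.parts, x ≤ 1 := by
    intro x hx
    exact (Multiset.eq_of_mem_replicate hx).le
  let S : Finset (Nat.Partition n) :=
    (Finset.univ.filter (fun μ : Nat.Partition n => ∀ a ∈ μ.parts, a ≤ p)).erase l₀
  have hS : ∀ l : Nat.Partition n, l ∈ S ↔ (∀ a ∈ l.parts, a ≤ p) ∧ ¬ ∀ x ∈ l.parts, x ≤ 1 := by
    intro l
    simp only [S, Finset.mem_erase, Finset.mem_filter, Finset.mem_univ, true_and]
    constructor
    · rintro ⟨h1, h2⟩
      exact ⟨h2, fun h => h1 (hl₀ l h)⟩
    · rintro ⟨h1, h2⟩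
      refine ⟨?_, h1⟩
      rintro rfl
      exact h2 hl₀'
  let Ψ : S → {C : ConjClasses (GL (Fin n) F) // ∃ g : GL (Fin n) F, ConjClasses.mk g = C ∧ orderOf g = p} :=
    fun l => ⟨ConjClasses.mk (G l.1), G l.1, rfl, (orderOf_eq_iff_of_hasType p (hG2 l.1)).2 ((hS l.1).1 l.2)⟩
  have hΨ : Function.Bijective Ψ := by
    constructor
    · intro l l' h
      have h1 : ConjClasses.mk (G l.1) = ConjClasses.mk (G l'.1) := congrArg Subtype.val h
      have h2 : IsConj (G l.1) (G l'.1) := ConjClasses.mk_eq_mk_iff_isConj.mp h1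
      have h3 := type_eq_of_isConj (hG2 l.1) (hG2 l'.1) h2
      exact Subtype.ext (Nat.Partition.ext h3)
    · rintro ⟨_, g, rfl, hg⟩
      have hn : IsNilpotent ((g : Matrix (Fin n) (Fin n) F) - 1) :=
        nil_of_unip p g ⟨1, by rw [hg, pow_one]⟩
      obtain ⟨s, hs⟩ := exists_hasType_of_nil g hn
      let l : Nat.Partition n := ⟨s, fun {x} hx => pos_of_hasType hs x hx, sum_of_hasType hs⟩
      have hl : l ∈ S := (hS l).2 ((orderOf_eq_iff_of_hasType p hs).1 hg)
      refine ⟨⟨l, hl⟩, Subtype.ext ?_⟩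
      exact ConjClasses.mk_eq_mk_iff_isConj.mpr (isConj_of_type (hG2 l) hs)
  rw [← Nat.card_congr (Equiv.ofBijective Ψ hΨ), Nat.card_eq_fintype_card, Fintype.card_coe]
  rw [Finset.card_erase_of_mem]
  simp only [Finset.mem_filter, Finset.mem_univ, true_and]
  intro a ha
  exact (hl₀' a ha).trans hp.one_lt.le

end Cfsg.Agent.Lib.OrderP
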