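import Mathlib

set_option autoImplicit false

namespace Cfsg.Agent.Lib.OrderP

open Polynomial Module

variable {F V V' : Type*} [Field F] [AddCommGroup V] [Module F V] [AddCommGroup V'] [Module F V']

/-- Canonical form of an operator whose square is a non-square scalar. -/
theorem exists_basis_of_sq [FiniteDimensional F V] (T : Module.End F V) {l : F} (hl : ¬ IsSquare l)
    (hT : T * T = l • 1) :
    ∃ (k : ℕ) (b : Module.Basis (Fin k × Fin 2) F V),
      ∀ i, T (b (i, 0)) = b (i, 1) ∧ T (b (i, 1)) = l • b (i, 0) := by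
  classical
  set P : F[X] := X ^ 2 - C l with hP
  have hirr : Irreducible P := by
    apply (X_pow_sub_C_irreducible_of_prime Nat.prime_two)
    intro b hb
    exact hl ⟨b, by rw [← hb]; ring⟩
  haveI : Fact (Irreducible P) := ⟨hirr⟩
  have hmonic : P.Monic := monic_X_pow_sub_C l two_ne_zero
  have hdeg : P.natDegree = 2 := natDegree_X_pow_sub_C
  let E := AdjoinRoot P
  have haeval : aeval T P = 0 := by
    simp only [hP, map_sub, map_pow, aeval_X, aeval_C]
    rw [pow_two, hT]
    ext v
    simp [Algebra.algebraMap_eq_smul_one]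
  let ρ : E →+* Module.End F V := Ideal.Quotient.lift (Ideal.span {P}) (aeval T : F[X] →ₐ[F] Module.End F V).toRingHom (by
    intro a ha
    obtain ⟨c, rfl⟩ := Ideal.mem_span_singleton'.1 ha
    simp [haeval])
  have hρC : ∀ c : F, ρ (algebraMap F E c) = c • 1 := by
    intro c
    change (aeval T : F[X] →ₐ[F] Module.End F V) (C c) = c • 1
    simp [Algebra.algebraMap_eq_smul_one]
  have hroot : ρ (AdjoinRoot.root P) = T := by
    change (aeval T : F[X] →ₐ[F] Module.End F V) X = T
    simp
  letI : Module E V := Module.compHom V ρ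
  have hsmul : ∀ (e : E) (v : V), e • v = ρ e v := fun _ _ => rfl
  haveI : IsScalarTower F E V := ⟨fun c e v => by
    rw [hsmul, hsmul, Algebra.smul_def, map_mul, hρC]
    simp⟩
  haveI : Module.Finite E V := Module.Finite.of_restrictScalars_finite F E V
  let pb := AdjoinRoot.powerBasis' hmonic
  have hdim : pb.dim = 2 := by
    simpa [pb] using hdeg
  let bF : Module.Basis (Fin 2) F E := pb.basis.reindex (finCongr hdim)
  have hb : ∀ j : Fin 2, bF j = AdjoinRoot.root P ^ (j : ℕ) := by
    intro j
    simp only [bF, Module.Basis.reindex_apply, pb]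
    rw [PowerBasis.basis_eq_pow]
    simp
  have hb0 : bF 0 = 1 := by rw [hb]; simp
  have hb1 : bF 1 = AdjoinRoot.root P := by rw [hb]; simp
  let bE := Module.finBasis E V
  let b0 := bF.smulTower bE
  let b : Module.Basis (Fin (finrank E V) × Fin 2) F V := b0.reindex (Equiv.prodComm _ _)
  have hbb : ∀ i j, b (i, j) = bF j • bE i := by
    intro i j
    simp [b, b0]
  refine ⟨finrank E V, b, fun i => ?_⟩
  have hT' : ∀ v, T v = AdjoinRoot.root P • v := by
    intro v
    rw [hsmul, hroot]
  rw [hbb, hbb, hb0, hb1, hT', hT']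
  simp only [one_smul]
  refine ⟨trivial, ?_⟩
  · have hr : AdjoinRoot.root P • AdjoinRoot.root P • bE i = l • bE i := by
      rw [smul_smul]
      have h2 : AdjoinRoot.root P * AdjoinRoot.root P = algebraMap F E l := by
        have h3 : (AdjoinRoot.mk P) P = 0 := AdjoinRoot.mk_self
        simp only [hP, map_sub, map_pow, AdjoinRoot.mk_X, AdjoinRoot.mk_C] at h3
        rw [← pow_two]
        exact sub_eq_zero.1 h3
      rw [h2, hsmul, hρC]
      simp
    exact hr

/-- Two operators with the same non-square scalar square are conjugate. -/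
theorem exists_intertwine_of_sq [FiniteDimensional F V] (T T' : Module.End F V) {l : F}
    (hl : ¬ IsSquare l) (hT : T * T = l • 1) (hT' : T' * T' = l • 1) :
    ∃ φ : V ≃ₗ[F] V, ∀ v, φ (T v) = T' (φ v) := by
  obtain ⟨k, b, hb⟩ := exists_basis_of_sq T hl hT
  obtain ⟨k', b', hb'⟩ := exists_basis_of_sq T' hl hT'
  have hk : k = k' := by
    have h1 := Module.finrank_eq_card_basis b
    have h2 := Module.finrank_eq_card_basis b'
    simp only [Fintype.card_prod, Fintype.card_fin] at h1 h2
    omega
  subst hk
  let φ := b.equiv b' (Equiv.refl _)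
  have hφ : ∀ x, φ (b x) = b' x := fun x => by simp [φ]
  refine ⟨φ, fun v => ?_⟩
  have : (φ.toLinearMap ∘ₗ T) = (T' ∘ₗ φ.toLinearMap) := by
    apply b.ext
    rintro ⟨i, j⟩
    simp only [LinearMap.comp_apply, LinearEquiv.coe_coe]
    fin_cases j
    · change φ (T (b (i, 0))) = T' (φ (b (i, 0)))
      rw [(hb i).1, hφ, hφ, (hb' i).1]
    · change φ (T (b (i, 1))) = T' (φ (b (i, 1)))
      rw [(hb i).2, map_smul, hφ, hφ, (hb' i).2]
  exact congrFun (congrArg DFunLike.coe this) v

/-- Complementary eigenspaces of an involution. -/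
lemma isCompl_ker_of_inv (h2 : (2 : F) ≠ 0) (T : Module.End F V) (hT : T * T = 1) :
    IsCompl (LinearMap.ker (T - 1)) (LinearMap.ker (T + 1)) := by
  have hT2 : ∀ v, T (T v) = v := fun v => by
    have := congrFun (congrArg DFunLike.coe hT) v
    simpa using this
  constructor
  · rw [Submodule.disjoint_def]
    intro v h₁ h₂
    simp only [LinearMap.mem_ker, LinearMap.sub_apply, LinearMap.add_apply, Module.End.one_apply] at h₁ h₂
    have h3 : (2 : F) • v = 0 := by
      rw [two_smul]
      have h4 : T v = v := sub_eq_zero.1 h₁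
      rw [h4] at h₂
      exact h₂
    exact (smul_eq_zero.1 h3).resolve_left h2
  · rw [codisjoint_iff, eq_top_iff]
    intro v _
    have hv : v = (2 : F)⁻¹ • (v + T v) + (2 : F)⁻¹ • (v - T v) := by
      rw [← smul_add]
      have : v + T v + (v - T v) = (2 : F) • v := by
        rw [two_smul]; abel
      rw [this, smul_smul, inv_mul_cancel₀ h2, one_smul]
    rw [hv]
    apply Submodule.add_mem_sup
    · simp only [LinearMap.mem_ker, LinearMap.sub_apply, Module.End.one_apply, map_smul, map_add, hT2]
      (module)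
    · simp only [LinearMap.mem_ker, LinearMap.add_apply, Module.End.one_apply, map_smul, map_sub, hT2]
      (module)

/-- Two involutions with eigenspaces of the same dimensions are conjugate. -/
theorem exists_intertwine_of_inv [FiniteDimensional F V] (h2 : (2 : F) ≠ 0) (T T' : Module.End F V)
    (hT : T * T = 1) (hT' : T' * T' = 1)
    (h₁ : Module.finrank F (LinearMap.ker (T - 1)) = Module.finrank F (LinearMap.ker (T' - 1)))
    (h₂ : Module.finrank F (LinearMap.ker (T + 1)) = Module.finrank F (LinearMap.ker (T' + 1))) :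
    ∃ φ : V ≃ₗ[F] V, ∀ v, φ (T v) = T' (φ v) := by
  have hc := isCompl_ker_of_inv h2 T hT
  have hc' := isCompl_ker_of_inv h2 T' hT'
  let α := LinearEquiv.ofFinrankEq _ _ h₁
  let β := LinearEquiv.ofFinrankEq _ _ h₂
  let e := Submodule.prodEquivOfIsCompl _ _ hc
  let e' := Submodule.prodEquivOfIsCompl _ _ hc'
  let φ : V ≃ₗ[F] V := e.symm.trans ((LinearEquiv.prodCongr α β).trans e')
  have hφ : ∀ (u : LinearMap.ker (T - 1)) (w : LinearMap.ker (T + 1)),
      φ ((u : V) + (w : V)) = (α u : V) + (β w : V) := by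
    intro u w
    have : (u : V) + w = e (u, w) := by simp [e]
    simp only [φ, LinearEquiv.trans_apply]
    rw [this, e.symm_apply_apply]
    simp [e']
  refine ⟨φ, fun v => ?_⟩
  obtain ⟨⟨u, w⟩, rfl⟩ := e.surjective v
  have hev : e (u, w) = (u : V) + w := by simp [e]
  rw [hev, hφ]
  have h3 : T u = u := by
    have h : (T - 1) (u : V) = 0 := LinearMap.mem_ker.1 u.2
    rw [LinearMap.sub_apply, Module.End.one_apply] at h
    exact sub_eq_zero.1 h
  have h4 : T w = - (w : V) := by
    have h : (T + 1) (w : V) = 0 := LinearMap.mem_ker.1 w.2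
    rw [LinearMap.add_apply, Module.End.one_apply] at h
    exact eq_neg_of_add_eq_zero_left h
  have h5 : T' (α u) = α u := by
    have h : (T' - 1) (α u : V) = 0 := LinearMap.mem_ker.1 (α u).2
    rw [LinearMap.sub_apply, Module.End.one_apply] at h
    exact sub_eq_zero.1 h
  have h6 : T' (β w) = - (β w : V) := by
    have h : (T' + 1) (β w : V) = 0 := LinearMap.mem_ker.1 (β w).2
    rw [LinearMap.add_apply, Module.End.one_apply] at h
    exact eq_neg_of_add_eq_zero_left h
  have e1 : T ((u : V) + (w : V)) = (u : V) + ((-w : LinearMap.ker (T + 1)) : V) := by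
    rw [map_add, h3, h4]
    simp
  have e2 : T' ((α u : V) + (β w : V)) = (α u : V) + ((β (-w) : LinearMap.ker (T' + 1)) : V) := by
    rw [map_add, h5, h6]
    simp
  rw [e1, hφ, e2]

end Cfsg.Agent.Lib.OrderP
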