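import Mathlib
import Cfsg.Agent.Lib.OrderP.Sq
import Cfsg.Agent.Lib.KS2.Jordan2

set_option autoImplicit false

namespace Cfsg.Agent.Lib.OrderP.PGLInv

open Matrix Module

variable {F : Type*} [Field F] [Fintype F] {n : ℕ}

/-- The linear operator of an invertible matrix. -/
noncomputable def op (g : GL (Fin n) F) : Module.End F (Fin n → F) := Matrix.toLin' (g : Matrix (Fin n) (Fin n) F)

lemma op_apply (g : GL (Fin n) F) (v : Fin n → F) : op g v = (g : Matrix (Fin n) (Fin n) F) *ᵥ v := rfl

lemma op_mul (g h : GL (Fin n) F) : op (g * h) = op g * op h := by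
  unfold op
  rw [Units.val_mul, Matrix.toLin'_mul]
  rfl

lemma op_one : op (1 : GL (Fin n) F) = 1 := by
  unfold op
  rw [Units.val_one, Matrix.toLin'_one]
  rfl

lemma isConj_of_intertwine' (g g' : GL (Fin n) F) (φ : (Fin n → F) ≃ₗ[F] (Fin n → F))
    (hφ : ∀ v, φ (op g v) = op g' (φ v)) : IsConj g g' := by
  apply Cfsg.Agent.Lib.KS2.Jordan.isConj_of_intertwine g g' φ
  intro v
  have h1 : ∀ (h : GL (Fin n) F) (w : Fin n → F), Matrix.toLin' ((h : Matrix (Fin n) (Fin n) F) - 1) w = op h w - w := by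
    intro h w
    rw [map_sub, LinearMap.sub_apply, Matrix.toLin'_one]
    rfl
  rw [h1 g v, h1 g' (φ v), map_sub, hφ]

/-- The rank invariant. -/
noncomputable def rk (g : GL (Fin n) F) : ℕ := Matrix.rank ((g : Matrix (Fin n) (Fin n) F) + 1)

lemma rank_conj_add (u g : GL (Fin n) F) (a : F) :
    Matrix.rank (((u * g * u⁻¹ : GL (Fin n) F) : Matrix (Fin n) (Fin n) F) + a • 1) =
      Matrix.rank ((g : Matrix (Fin n) (Fin n) F) + a • 1) := by
  have h : ((u * g * u⁻¹ : GL (Fin n) F) : Matrix (Fin n) (Fin n) F) + a • 1 =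
      (u : Matrix (Fin n) (Fin n) F) * ((g : Matrix (Fin n) (Fin n) F) + a • 1) * ((u⁻¹ : GL (Fin n) F) : Matrix (Fin n) (Fin n) F) := by
    have h1 : (u : Matrix (Fin n) (Fin n) F) * ((u⁻¹ : GL (Fin n) F) : Matrix (Fin n) (Fin n) F) = 1 := by
      rw [← Units.val_mul]; simp
    rw [Units.val_mul, Units.val_mul, mul_add, add_mul, mul_smul_comm, mul_one, smul_mul_assoc, h1]
  rw [h, Matrix.rank_mul_eq_left_of_isUnit_det, Matrix.rank_mul_eq_right_of_isUnit_det]
  · exact (Matrix.isUnit_iff_isUnit_det _).1 u.isUnit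
  · exact (Matrix.isUnit_iff_isUnit_det _).1 (u⁻¹).isUnit

omit [Fintype F] in
lemma finrank_ker_add_one (g : GL (Fin n) F) :
    Module.finrank F (LinearMap.ker (op g + 1)) = n - Matrix.rank ((g : Matrix (Fin n) (Fin n) F) + 1) := by
  have h : op g + 1 = ((g : Matrix (Fin n) (Fin n) F) + 1).mulVecLin := by
    ext v
    simp [op_apply, Matrix.add_mulVec]
  have h2 := LinearMap.finrank_range_add_finrank_ker ((g : Matrix (Fin n) (Fin n) F) + 1).mulVecLin
  rw [Module.finrank_fin_fun] at h2
  rw [h]
  unfold Matrix.rank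
  omega

omit [Fintype F] in
lemma finrank_ker_sub_one (g : GL (Fin n) F) :
    Module.finrank F (LinearMap.ker (op g - 1)) = n - Matrix.rank ((g : Matrix (Fin n) (Fin n) F) - 1) := by
  have h : op g - 1 = ((g : Matrix (Fin n) (Fin n) F) - 1).mulVecLin := by
    ext v
    simp [op_apply, Matrix.sub_mulVec]
  have h2 := LinearMap.finrank_range_add_finrank_ker ((g : Matrix (Fin n) (Fin n) F) - 1).mulVecLin
  rw [Module.finrank_fin_fun] at h2
  rw [h]
  unfold Matrix.rank
  omega

/-- Diagonal matrices of sign vectors. -/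
def dvec (c : ℕ) : Fin n → F := fun j => if (j : ℕ) < c then -1 else 1

lemma dvec_sq (c : ℕ) (j : Fin n) : (dvec c j : F) * dvec c j = 1 := by
  unfold dvec
  split_ifs <;> simp

/-- The sign matrix. -/
def D (c : ℕ) : GL (Fin n) F :=
  ⟨diagonal (dvec c), diagonal (dvec c),
    by rw [diagonal_mul_diagonal]; simp [dvec_sq], by rw [diagonal_mul_diagonal]; simp [dvec_sq]⟩

lemma D_val (c : ℕ) : ((D c : GL (Fin n) F) : Matrix (Fin n) (Fin n) F) = diagonal (dvec c) := rfl

lemma D_mul_self (c : ℕ) : (D c : GL (Fin n) F) * D c = 1 := by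
  apply Units.ext
  rw [Units.val_mul, D_val, diagonal_mul_diagonal]
  simp [dvec_sq]

lemma card_ge (c : ℕ) (hc : c ≤ n) : Fintype.card {j : Fin n // c ≤ (j : ℕ)} = n - c := by
  rw [Fintype.card_subtype]
  have : (Finset.univ.filter (fun j : Fin n => c ≤ (j : ℕ))).map Fin.valEmbedding = Finset.Ico c n := by
    ext x
    simp only [Finset.mem_map, Finset.mem_filter, Finset.mem_univ, true_and, Fin.valEmbedding_apply, Finset.mem_Ico]
    constructor
    · rintro ⟨j, hj, rfl⟩
      exact ⟨hj, j.2⟩
    · rintro ⟨h1, h2⟩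
      exact ⟨⟨x, h2⟩, h1, rfl⟩
  rw [← Finset.card_map Fin.valEmbedding, this, Nat.card_Ico]

lemma rk_D (h2 : (2 : F) ≠ 0) (c : ℕ) (hc : c ≤ n) : rk (D c : GL (Fin n) F) = n - c := by
  classical
  unfold rk
  have : ((D c : GL (Fin n) F) : Matrix (Fin n) (Fin n) F) + 1 = diagonal (fun j : Fin n => dvec c j + 1) := by
    rw [D_val, ← diagonal_one, diagonal_add]
  rw [this, Matrix.rank_diagonal]
  rw [← card_ge c hc]
  apply Fintype.card_congr
  apply Equiv.subtypeEquivRight
  intro j
  unfold dvec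
  split_ifs with h
  · simp
    omega
  · have : (1 : F) + 1 = 2 := by norm_num
    simp [this, h2]
    omega

/-- Ranks for an involution. -/
lemma rk_add_rk_neg (h2 : (2 : F) ≠ 0) (g : GL (Fin n) F) (hg : g * g = 1) :
    Matrix.rank ((g : Matrix (Fin n) (Fin n) F) + 1) + Matrix.rank ((g : Matrix (Fin n) (Fin n) F) - 1) = n := by
  have hop : op g * op g = 1 := by rw [← op_mul, hg, op_one]
  have hc := isCompl_ker_of_inv h2 (op g) hop
  have h3 := Submodule.finrank_add_eq_of_isCompl hc
  rw [Module.finrank_fin_fun] at h3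
  have e1 := finrank_ker_add_one g
  have e2 := finrank_ker_sub_one g
  rw [e1, e2] at h3
  have l1 : Matrix.rank ((g : Matrix (Fin n) (Fin n) F) + 1) ≤ n := by
    have := Matrix.rank_le_card_width ((g : Matrix (Fin n) (Fin n) F) + 1)
    rwa [Fintype.card_fin] at this
  have l2 : Matrix.rank ((g : Matrix (Fin n) (Fin n) F) - 1) ≤ n := by
    have := Matrix.rank_le_card_width ((g : Matrix (Fin n) (Fin n) F) - 1)
    rwa [Fintype.card_fin] at this
  omega

/-- Involutions with the same rank are conjugate. -/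
theorem isConj_of_rk_eq (h2 : (2 : F) ≠ 0) (g g' : GL (Fin n) F) (hg : g * g = 1) (hg' : g' * g' = 1)
    (hr : rk g = rk g') : IsConj g g' := by
  have hop : op g * op g = 1 := by rw [← op_mul, hg, op_one]
  have hop' : op g' * op g' = 1 := by rw [← op_mul, hg', op_one]
  have r1 := rk_add_rk_neg h2 g hg
  have r2 := rk_add_rk_neg h2 g' hg'
  unfold rk at hr
  have e1 := finrank_ker_add_one g
  have e2 := finrank_ker_sub_one g
  have e1' := finrank_ker_add_one g'
  have e2' := finrank_ker_sub_one g'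
  obtain ⟨φ, hφ⟩ := exists_intertwine_of_inv h2 (op g) (op g') hop hop'
    (by rw [e2, e2']; omega) (by rw [e1, e1']; omega)
  exact isConj_of_intertwine' g g' φ hφ

lemma rk_conj (u g : GL (Fin n) F) : rk (u * g * u⁻¹) = rk g := by
  have := rank_conj_add u g 1
  simpa [rk] using this

lemma rk_of_isConj {g g' : GL (Fin n) F} (h : IsConj g g') : rk g = rk g' := by
  obtain ⟨u, rfl⟩ := isConj_iff.1 h
  exact (rk_conj u g).symm

/-- Elements squaring to a given nonzero scalar, `n` even. -/
lemma exists_J (μ : F) (hμ : μ ≠ 0) (hn : Even n) :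
    ∃ J : GL (Fin n) F, (J * J : GL (Fin n) F) = GeneralLinearGroup.scalar (Fin n) (Units.mk0 μ hμ) := by
  obtain ⟨k, hk⟩ := hn
  have hk' : k * 2 = n := by omega
  let e : Fin k × Fin 2 ≃ Fin n := finProdFinEquiv.trans (finCongr hk')
  let b : Module.Basis (Fin k × Fin 2) F (Fin n → F) := (Pi.basisFun F (Fin n)).reindex e.symm
  let f : Fin k × Fin 2 → (Fin n → F) := fun x => if x.2 = 0 then b (x.1, 1) else μ • b (x.1, 0)
  let T : Module.End F (Fin n → F) := b.constr ℕ f
  have hT : ∀ x, T (b x) = f x := fun x => b.constr_basis ℕ f x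
  have hTT : T * T = μ • 1 := by
    apply b.ext
    rintro ⟨i, j⟩
    rw [Module.End.mul_apply, hT]
    fin_cases j
    · change T (f (i, 0)) = _
      have : f (i, 0) = b (i, 1) := by simp [f]
      rw [this, hT]
      simp [f]
    · change T (f (i, 1)) = _
      have : f (i, 1) = μ • b (i, 0) := by simp [f]
      rw [this, map_smul, hT]
      simp [f]
  let A : Matrix (Fin n) (Fin n) F := LinearMap.toMatrix' T
  have hA : A * A = μ • 1 := by
    apply Matrix.toLin'.injective
    rw [Matrix.toLin'_mul]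
    simp only [A, Matrix.toLin'_toMatrix']
    change T * T = _
    rw [hTT, map_smul, Matrix.toLin'_one]
    rfl
  have hA1 : A * (μ⁻¹ • A) = 1 := by
    rw [mul_smul_comm, hA, smul_smul, inv_mul_cancel₀ hμ, one_smul]
  have hA2 : (μ⁻¹ • A) * A = 1 := by
    rw [smul_mul_assoc, hA, smul_smul, inv_mul_cancel₀ hμ, one_smul]
  refine ⟨⟨A, μ⁻¹ • A, hA1, hA2⟩, Units.ext ?_⟩
  rw [Units.val_mul]
  change A * A = _
  rw [hA]
  ext i j
  simp [GeneralLinearGroup.scalar, Matrix.one_apply, Matrix.diagonal_apply]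

/-- The quotient map. -/
local notation "π" => (QuotientGroup.mk : GL (Fin n) F → GL (Fin n) F ⧸ Subgroup.center (GL (Fin n) F))

omit [Fintype F] in
lemma mem_center_iff' (g : GL (Fin n) F) :
    g ∈ Subgroup.center (GL (Fin n) F) ↔ ∃ c : Fˣ, GeneralLinearGroup.scalar (Fin n) c = g := by
  rw [GeneralLinearGroup.center_eq_range_scalar, MonoidHom.mem_range]

/-- Scalar abbreviation. -/
local notation "sc" => (GeneralLinearGroup.scalar (Fin n) : Fˣ →* GL (Fin n) F)

omit [Fintype F] in
lemma sc_mem (c : Fˣ) : sc c ∈ Subgroup.center (GL (Fin n) F) := (mem_center_iff' _).2 ⟨c, rfl⟩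

omit [Fintype F] in
lemma sc_comm (c : Fˣ) (g : GL (Fin n) F) : sc c * g = g * sc c :=
  (Subgroup.mem_center_iff.1 (sc_mem c) g).symm

omit [Fintype F] in
lemma sc_apply (c : Fˣ) (i : Fin n) : ((sc c : GL (Fin n) F) : Matrix (Fin n) (Fin n) F) i i = (c : F) := by
  simp [GeneralLinearGroup.scalar]

omit [Fintype F] in
lemma sc_inj (hn : 1 ≤ n) {c d : Fˣ} (h : (sc c : GL (Fin n) F) = sc d) : c = d := by
  apply Units.ext
  have := congrArg (fun g : GL (Fin n) F => (g : Matrix (Fin n) (Fin n) F) ⟨0, hn⟩ ⟨0, hn⟩) h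
  simpa [sc_apply] using this

omit [Fintype F] in
lemma op_sc (c : Fˣ) : op (sc c : GL (Fin n) F) = (c : F) • 1 := by
  ext v i
  simp [op_apply, GeneralLinearGroup.scalar, Matrix.mulVec, dotProduct, Matrix.one_apply, Matrix.diagonal_apply]

omit [Fintype F] in
lemma pi_mul_sc (g : GL (Fin n) F) (c : Fˣ) : π (g * sc c) = π g := by
  apply QuotientGroup.eq.2
  rw [_root_.mul_inv_rev, mul_assoc, inv_mul_cancel, mul_one]
  exact Subgroup.inv_mem _ (sc_mem c)

omit [Fintype F] in
lemma orderOf_pi_iff (g : GL (Fin n) F) :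
    orderOf (π g) = 2 ↔ g * g ∈ Subgroup.center (GL (Fin n) F) ∧ g ∉ Subgroup.center (GL (Fin n) F) := by
  haveI : Fact (Nat.Prime 2) := ⟨Nat.prime_two⟩
  have e1 : (π g) ^ 2 = π (g * g) := by
    rw [pow_two]; rfl
  have e2 : ∀ x : GL (Fin n) F, π x = 1 ↔ x ∈ Subgroup.center (GL (Fin n) F) := fun x => QuotientGroup.eq_one_iff x
  constructor
  · intro h
    refine ⟨(e2 _).1 (by rw [← e1, ← h]; exact pow_orderOf_eq_one _), ?_⟩
    intro hg
    rw [(e2 _).2 hg, orderOf_one] at h
    omega
  · rintro ⟨h1, h2⟩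
    exact orderOf_eq_prime (by rw [e1]; exact (e2 _).2 h1) (fun h => h2 ((e2 _).1 h))

omit [Fintype F] in
lemma exists_of_isConj {x y : GL (Fin n) F} (h : IsConj (π x) (π y)) :
    ∃ (u : GL (Fin n) F) (c : Fˣ), y = u * x * u⁻¹ * sc c := by
  obtain ⟨w, hw⟩ := isConj_iff.1 h
  obtain ⟨u, rfl⟩ := QuotientGroup.mk_surjective w
  have h1 : π (u * x * u⁻¹) = π y := hw
  have h2 := QuotientGroup.eq.1 h1
  obtain ⟨c, hc⟩ := (mem_center_iff' _).1 h2
  refine ⟨u, c, ?_⟩
  rw [hc]
  group

omit [Fintype F] in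
lemma isConj_pi {x y : GL (Fin n) F} (h : IsConj x y) : IsConj (π x) (π y) :=
  by
    obtain ⟨u, hu⟩ := isConj_iff.1 h
    exact isConj_iff.2 ⟨π u, by rw [← hu]; rfl⟩

omit [Fintype F] in
lemma eq_zero_of_rank_eq_zero (A : Matrix (Fin n) (Fin n) F) (h : A.rank = 0) : A = 0 := by
  unfold Matrix.rank at h
  rw [Submodule.finrank_eq_zero, LinearMap.range_eq_bot] at h
  apply Matrix.toLin'.injective
  rw [Matrix.toLin'_apply', h, map_zero]

omit [Fintype F] in
lemma rank_neg' (A : Matrix (Fin n) (Fin n) F) : (-A).rank = A.rank := by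
  unfold Matrix.rank
  have : (-A).mulVecLin = -A.mulVecLin := by
    ext v
    simp [Matrix.neg_mulVec]
  rw [this, LinearMap.range_neg]

omit [Fintype F] in
lemma rk_mul_neg (g : GL (Fin n) F) :
    rk (g * sc (-1)) = Matrix.rank ((g : Matrix (Fin n) (Fin n) F) - 1) := by
  unfold rk
  have : ((g * sc (-1) : GL (Fin n) F) : Matrix (Fin n) (Fin n) F) + 1 =
      -((g : Matrix (Fin n) (Fin n) F) - 1) := by
    rw [Units.val_mul]
    have : ((sc (-1) : GL (Fin n) F) : Matrix (Fin n) (Fin n) F) = -1 := by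
      ext i j
      simp [GeneralLinearGroup.scalar, Matrix.one_apply]
    rw [this]
    simp only [mul_neg, mul_one]
    abel
  rw [this, rank_neg']

omit [Fintype F] in
lemma sc_neg_one_mul_self : (sc (-1) : GL (Fin n) F) * sc (-1) = 1 := by
  rw [← map_mul]
  simp

lemma inj_aux (h2 : (2 : F) ≠ 0) (hn : 2 ≤ n) (i j : ℕ) (hi : i ≤ n / 2) (hj : j ≤ n / 2)
    (h : IsConj (π (D i : GL (Fin n) F)) (π (D j : GL (Fin n) F))) : i = j := by
  obtain ⟨u, c, hc⟩ := exists_of_isConj h
  have hin : i ≤ n := by omega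
  have hjn : j ≤ n := by omega
  have hxx : (u * D i * u⁻¹ : GL (Fin n) F) * (u * D i * u⁻¹) = 1 := by
    have : (u * D i * u⁻¹ : GL (Fin n) F) * (u * D i * u⁻¹) = u * (D i * D i) * u⁻¹ := by group
    rw [this, D_mul_self]
    group
  have hcc : sc (c * c) = (1 : GL (Fin n) F) := by
    have h3 := D_mul_self (n := n) (F := F) j
    rw [hc] at h3
    have h4 : (u * D i * u⁻¹ * sc c : GL (Fin n) F) * (u * D i * u⁻¹ * sc c) =
        ((u * D i * u⁻¹) * (u * D i * u⁻¹)) * sc (c * c) := by
      rw [map_mul]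
      have := sc_comm c (u * D i * u⁻¹ : GL (Fin n) F)
      calc (u * D i * u⁻¹ * sc c : GL (Fin n) F) * (u * D i * u⁻¹ * sc c)
          = (u * D i * u⁻¹) * (sc c * (u * D i * u⁻¹)) * sc c := by group
        _ = (u * D i * u⁻¹) * ((u * D i * u⁻¹) * sc c) * sc c := by rw [this]
        _ = _ := by group
    rw [h4, hxx, one_mul] at h3
    exact h3
  have hcc' : c * c = 1 := by
    apply sc_inj (n := n) (by omega)
    rw [hcc, map_one]
  have hc' : (c : F) * c = 1 := by
    have := congrArg Units.val hcc'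
    simpa using this
  have h5 : (c : F) = 1 ∨ (c : F) = -1 := mul_self_eq_one_iff.1 hc'
  rcases h5 with h5 | h5
  · have hc1 : c = 1 := Units.ext h5
    rw [hc1, map_one, mul_one] at hc
    have e1 := rk_D (n := n) h2 j hjn
    have e2 := rk_D (n := n) h2 i hin
    rw [hc, rk_conj, e2] at e1
    omega
  · have hc1 : c = -1 := Units.ext (by simpa using h5)
    rw [hc1] at hc
    have e1 := rk_D (n := n) h2 j hjn
    rw [hc, rk_mul_neg] at e1
    have e2 := rk_add_rk_neg h2 (u * D i * u⁻¹ : GL (Fin n) F) hxx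
    have e3 : rk (u * D i * u⁻¹ : GL (Fin n) F) = n - i := by
      rw [rk_conj, rk_D h2 i hin]
    unfold rk at e3
    omega

/-- The count of involution classes in `PGL_n`. -/
theorem card_invol_classes (hodd : Odd (Fintype.card F)) (hn : 2 ≤ n) :
    Nat.card {C : ConjClasses (GL (Fin n) F ⧸ Subgroup.center (GL (Fin n) F)) //
      ∃ g : GL (Fin n) F ⧸ Subgroup.center (GL (Fin n) F), ConjClasses.mk g = C ∧ orderOf g = 2} =
      n / 2 + (if Even n then 1 else 0) := by
  classical
  have hch : ringChar F ≠ 2 := by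
    intro h
    have := FiniteField.even_card_iff_char_two.1 h
    rcases hodd with ⟨k, hk⟩
    omega
  have h2 : (2 : F) ≠ 0 := Ring.two_ne_zero hch
  obtain ⟨μ₀, hμ₀⟩ := FiniteField.exists_nonsquare hch
  have hμ₀0 : μ₀ ≠ 0 := by
    rintro rfl
    exact hμ₀ ⟨0, by simp⟩
  let m₀ : Fˣ := Units.mk0 μ₀ hμ₀0
  have hJ : Even n → ∃ J : GL (Fin n) F, J * J = sc m₀ := fun h => exists_J μ₀ hμ₀0 h
  have hDord : ∀ i : ℕ, 1 ≤ i → i ≤ n / 2 → orderOf (π (D i : GL (Fin n) F)) = 2 := by
    intro i hi hi2
    rw [orderOf_pi_iff, D_mul_self]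
    refine ⟨Subgroup.one_mem _, ?_⟩
    intro hmem
    obtain ⟨c, hc⟩ := (mem_center_iff' _).1 hmem
    have h0 : (0 : ℕ) < n := by omega
    have h1 : n - 1 < n := by omega
    have e0 := congrArg (fun g : GL (Fin n) F => (g : Matrix (Fin n) (Fin n) F) ⟨0, h0⟩ ⟨0, h0⟩) hc
    have e1 := congrArg (fun g : GL (Fin n) F => (g : Matrix (Fin n) (Fin n) F) ⟨n - 1, h1⟩ ⟨n - 1, h1⟩) hc
    simp only [sc_apply, D_val, diagonal_apply_eq, dvec] at e0 e1
    rw [if_pos (by omega)] at e0
    rw [if_neg (by omega)] at e1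
    apply h2
    have e2 : (1 : F) = -1 := e1.symm.trans e0
    calc (2 : F) = 1 + 1 := by norm_num
      _ = (-1) + 1 := by rw [← e2]
      _ = 0 := by ring
  have hJord : ∀ J : GL (Fin n) F, J * J = sc m₀ → orderOf (π J) = 2 := by
    intro J hJ2
    rw [orderOf_pi_iff, hJ2]
    refine ⟨sc_mem _, ?_⟩
    intro hmem
    obtain ⟨c, hc⟩ := (mem_center_iff' _).1 hmem
    have : sc (c * c) = sc m₀ := by rw [map_mul, hc, hJ2]
    have := sc_inj (by omega) this
    apply hμ₀
    refine ⟨(c : F), ?_⟩
    have h3 := congrArg (Units.val) this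
    simpa [m₀] using h3.symm
  let L₁ := ↥(Finset.Icc 1 (n / 2))
  let L₂ := {_u : Unit // Even n}
  let Ψ : L₁ ⊕ L₂ → {C : ConjClasses (GL (Fin n) F ⧸ Subgroup.center (GL (Fin n) F)) //
      ∃ g : GL (Fin n) F ⧸ Subgroup.center (GL (Fin n) F), ConjClasses.mk g = C ∧ orderOf g = 2} :=
    fun x => match x with
    | Sum.inl i => ⟨ConjClasses.mk (π (D i.1)), _, rfl,
        hDord i.1 (Finset.mem_Icc.1 i.2).1 (Finset.mem_Icc.1 i.2).2⟩
    | Sum.inr u => ⟨ConjClasses.mk (π (hJ u.2).choose), _, rfl, hJord _ (hJ u.2).choose_spec⟩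
  have hΨ : Function.Bijective Ψ := by
    constructor
    · have hkey : ∀ J : GL (Fin n) F, J * J = sc m₀ → ∀ i : ℕ, i ≤ n / 2 →
          ¬ IsConj (π (D i : GL (Fin n) F)) (π J) := by
        intro J hJ2 i _ hcj
        obtain ⟨u, c, hc⟩ := exists_of_isConj hcj
        have hxx : (u * D i * u⁻¹ : GL (Fin n) F) * (u * D i * u⁻¹) = 1 := by
          have : (u * D i * u⁻¹ : GL (Fin n) F) * (u * D i * u⁻¹) = u * (D i * D i) * u⁻¹ := by group
          rw [this, D_mul_self]
          group
        have h4 : (u * D i * u⁻¹ * sc c : GL (Fin n) F) * (u * D i * u⁻¹ * sc c) =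
            ((u * D i * u⁻¹) * (u * D i * u⁻¹)) * sc (c * c) := by
          rw [map_mul]
          have := sc_comm c (u * D i * u⁻¹ : GL (Fin n) F)
          calc (u * D i * u⁻¹ * sc c : GL (Fin n) F) * (u * D i * u⁻¹ * sc c)
              = (u * D i * u⁻¹) * (sc c * (u * D i * u⁻¹)) * sc c := by group
            _ = (u * D i * u⁻¹) * ((u * D i * u⁻¹) * sc c) * sc c := by rw [this]
            _ = _ := by group
        rw [hc, h4, hxx, one_mul] at hJ2
        have h5 := sc_inj (n := n) (by omega) hJ2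
        apply hμ₀
        refine ⟨(c : F), ?_⟩
        have h3 := congrArg Units.val h5
        simpa [m₀] using h3.symm
      rintro (i | u) (j | v) hEq
      · have h3 := congrArg Subtype.val hEq
        have h4 : ConjClasses.mk (π (D i.1 : GL (Fin n) F)) = ConjClasses.mk (π (D j.1 : GL (Fin n) F)) := h3
        have h5 := ConjClasses.mk_eq_mk_iff_isConj.1 h4
        have := inj_aux h2 hn i.1 j.1 (Finset.mem_Icc.1 i.2).2 (Finset.mem_Icc.1 j.2).2 h5
        exact congrArg Sum.inl (Subtype.ext this)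
      · exfalso
        have h3 := congrArg Subtype.val hEq
        have h4 : ConjClasses.mk (π (D i.1 : GL (Fin n) F)) = ConjClasses.mk (π (hJ v.2).choose) := h3
        exact hkey _ (hJ v.2).choose_spec i.1 (Finset.mem_Icc.1 i.2).2 (ConjClasses.mk_eq_mk_iff_isConj.1 h4)
      · exfalso
        have h3 := congrArg Subtype.val hEq
        have h4 : ConjClasses.mk (π (hJ u.2).choose) = ConjClasses.mk (π (D j.1 : GL (Fin n) F)) := h3
        exact hkey _ (hJ u.2).choose_spec j.1 (Finset.mem_Icc.1 j.2).2 (ConjClasses.mk_eq_mk_iff_isConj.1 h4).symm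
      · exact congrArg Sum.inr (Subtype.ext rfl)
    · rintro ⟨_, g₀, rfl, hg⟩
      obtain ⟨g, rfl⟩ := QuotientGroup.mk_surjective g₀
      obtain ⟨hgg, hgZ⟩ := (orderOf_pi_iff g).1 hg
      obtain ⟨lam, hlam⟩ := (mem_center_iff' _).1 hgg
      by_cases hsq : IsSquare (lam : F)
      · obtain ⟨s, hs⟩ := hsq
        have hs0 : s ≠ 0 := by
          rintro rfl
          exact lam.ne_zero (by simpa using hs)
        let t : Fˣ := Units.mk0 s hs0
        have htt : t * t = lam := Units.ext (by simp [t, hs])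
        let h : GL (Fin n) F := g * sc t⁻¹
        have hh : h * h = 1 := by
          have : h * h = (g * g) * (sc t⁻¹ * sc t⁻¹) := by
            have := sc_comm t⁻¹ g
            simp only [h]
            calc (g * sc t⁻¹) * (g * sc t⁻¹) = g * (sc t⁻¹ * g) * sc t⁻¹ := by group
              _ = g * (g * sc t⁻¹) * sc t⁻¹ := by rw [this]
              _ = _ := by group
          rw [this, ← hlam, ← map_mul, ← map_mul, ← htt]
          simp
        have hpi : π h = π g := pi_mul_sc g _
        have hZ : h ∉ Subgroup.center (GL (Fin n) F) := by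
          intro hm
          apply hgZ
          have : g = h * sc t := by
            simp only [h]
            rw [mul_assoc, ← map_mul]
            simp
          rw [this]
          exact Subgroup.mul_mem _ hm (sc_mem _)
        have hsum := rk_add_rk_neg h2 h hh
        have hr0 : rk h ≠ 0 := by
          intro h0
          apply hZ
          unfold rk at h0
          have h3 := eq_zero_of_rank_eq_zero _ h0
          have h4 : h = sc (-1) := by
            apply Units.ext
            have : ((sc (-1) : GL (Fin n) F) : Matrix (Fin n) (Fin n) F) = -1 := by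
              ext i j
              simp [GeneralLinearGroup.scalar, Matrix.one_apply]
            rw [this]
            exact eq_neg_of_add_eq_zero_left h3
          rw [h4]
          exact sc_mem _
        have hrn : rk h ≠ n := by
          intro h0
          apply hZ
          have h1 : Matrix.rank ((h : Matrix (Fin n) (Fin n) F) - 1) = 0 := by
            unfold rk at h0
            omega
          have h3 := eq_zero_of_rank_eq_zero _ h1
          have h4 : h = 1 := Units.ext (sub_eq_zero.1 h3)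
          rw [h4]
          exact Subgroup.one_mem _
        have hrle : rk h ≤ n := by
          unfold rk at hrn ⊢
          omega
        by_cases hc : n - rk h ≤ n / 2
        · refine ⟨Sum.inl ⟨n - rk h, Finset.mem_Icc.2 ⟨by omega, hc⟩⟩, ?_⟩
          apply Subtype.ext
          change ConjClasses.mk (π (D (n - rk h))) = ConjClasses.mk (π g)
          rw [ConjClasses.mk_eq_mk_iff_isConj, ← hpi]
          apply isConj_pi
          apply isConj_of_rk_eq h2 _ _ (D_mul_self _) hh
          rw [rk_D h2 _ (by omega)]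
          omega
        · refine ⟨Sum.inl ⟨rk h, Finset.mem_Icc.2 ⟨by omega, by omega⟩⟩, ?_⟩
          apply Subtype.ext
          change ConjClasses.mk (π (D (rk h))) = ConjClasses.mk (π g)
          rw [ConjClasses.mk_eq_mk_iff_isConj, ← hpi, ← pi_mul_sc h (-1)]
          apply isConj_pi
          apply isConj_of_rk_eq h2 _ _ (D_mul_self _)
          · have := sc_comm (-1) h
            calc (h * sc (-1)) * (h * sc (-1)) = h * (sc (-1) * h) * sc (-1) := by group
              _ = h * (h * sc (-1)) * sc (-1) := by rw [this]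
              _ = (h * h) * (sc (-1) * sc (-1)) := by group
              _ = 1 := by rw [hh, sc_neg_one_mul_self, one_mul]
          · rw [rk_D h2 _ hrle, rk_mul_neg]
            unfold rk at hrle ⊢
            omega
      · -- `lam` is a non-square
        have hopg : op g * op g = (lam : F) • 1 := by
          rw [← op_mul, ← hlam, op_sc]
        obtain ⟨k, b, -⟩ := exists_basis_of_sq (op g) hsq hopg
        have hE : Even n := by
          have h1 := Module.finrank_eq_card_basis b
          rw [Module.finrank_fin_fun, Fintype.card_prod, Fintype.card_fin, Fintype.card_fin] at h1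
          exact ⟨k, by omega⟩
        refine ⟨Sum.inr ⟨(), hE⟩, ?_⟩
        apply Subtype.ext
        change ConjClasses.mk (π (hJ hE).choose) = ConjClasses.mk (π g)
        rw [ConjClasses.mk_eq_mk_iff_isConj]
        have hJ2 := (hJ hE).choose_spec
        set J := (hJ hE).choose with hJdef
        -- `μ₀ = lam * ν²`
        have hq : IsSquare ((lam : F) * μ₀) := by
          have e1 := (quadraticChar_neg_one_iff_not_isSquare (a := μ₀)).2 hμ₀
          have e2 := (quadraticChar_neg_one_iff_not_isSquare (a := (lam : F))).2 hsq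
          rw [← quadraticChar_one_iff_isSquare (mul_ne_zero lam.ne_zero hμ₀0), map_mul, e1, e2]
          norm_num
        obtain ⟨ν, hν⟩ := hq
        have hν0 : ν ≠ 0 := by
          rintro rfl
          have := mul_ne_zero lam.ne_zero hμ₀0
          exact this (by simpa using hν)
        let w : Fˣ := Units.mk0 ν hν0 * lam⁻¹
        have hww : lam * (w * w) = m₀ := by
          apply Units.ext
          simp only [Units.val_mul, w, m₀, Units.val_mk0, Units.val_inv_eq_inv_val]
          have hl := lam.ne_zero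
          field_simp
          rw [hν]
          ring
        let g' : GL (Fin n) F := g * sc w
        have hg' : g' * g' = sc m₀ := by
          have := sc_comm w g
          calc g' * g' = g * (sc w * g) * sc w := by simp only [g']; group
            _ = g * (g * sc w) * sc w := by rw [this]
            _ = (g * g) * (sc w * sc w) := by group
            _ = sc m₀ := by rw [← hlam, ← map_mul, ← map_mul, hww]
        have hT1 : op J * op J = μ₀ • 1 := by
          rw [← op_mul, hJ2, op_sc]; rfl
        have hT2 : op g' * op g' = μ₀ • 1 := by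
          rw [← op_mul, hg', op_sc]; rfl
        obtain ⟨φ, hφ⟩ := exists_intertwine_of_sq (op J) (op g') hμ₀ hT1 hT2
        have hcj := isConj_of_intertwine' J g' φ hφ
        have := isConj_pi hcj
        rwa [show π g' = π g from pi_mul_sc g w] at this
  rw [← Nat.card_congr (Equiv.ofBijective Ψ hΨ), Nat.card_sum]
  congr 1
  · rw [Nat.card_eq_fintype_card, Fintype.card_coe, Nat.card_Icc]
    omega
  · by_cases h : Even n
    · simp [L₂, h]
    · simp [L₂, h]

end Cfsg.Agent.Lib.OrderP.PGLInv
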